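import Mathlib
import Cfsg.Agent.Lib.Helper6.X32.Defs
import Cfsg.Agent.Lib.Helper94.Symp

/-!
# X32 (S6002, helper6): package [EX5A], an element of `Sp_4` cycling the frame
-/

set_option autoImplicit false
open scoped MatrixGroups Matrix
open Cfsg

namespace Cfsg.Agent.Lib.Helper32.X32

open Cfsg.Agent.Lib.Helper6.X32 Cfsg.Agent.Lib.Helper94

universe u

section ring

variable {A : Type*} [Ring A]

theorem d_mul_a (a b : A) (ha : a * a = 1) (hb : b * b = 1) :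
    (a - b) * a = -(b * (a - b)) := by
  rw [sub_mul, mul_sub, ha, hb]
  abel

theorem d_mul_b (a b : A) (ha : a * a = 1) (hb : b * b = 1) :
    (a - b) * b = -(a * (a - b)) := by
  rw [sub_mul, mul_sub, ha, hb]
  abel

theorem d_mul_c (a b c : A) (hac : a * c = -(c * a)) (hbc : b * c = -(c * b)) :
    (a - b) * c = -(c * (a - b)) := by
  rw [sub_mul, mul_sub, hac, hbc]
  abel

theorem d_mul_d (a b : A) (ha : a * a = 1) (hb : b * b = 1) (hab : a * b = -(b * a)) :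
    (a - b) * (a - b) = 1 + 1 := by
  rw [sub_mul, mul_sub, mul_sub, ha, hb, hab]
  abel

theorem chain4 (d1 d2 d3 d4 x0 x1 x2 x3 x4 : A)
    (h4 : d4 * x0 = -(x1 * d4)) (h3 : d3 * x1 = -(x2 * d3)) (h2 : d2 * x2 = -(x3 * d2))
    (h1 : d1 * x3 = -(x4 * d1)) :
    d1 * d2 * d3 * d4 * x0 = x4 * (d1 * d2 * d3 * d4) := by
  calc d1 * d2 * d3 * d4 * x0 = d1 * d2 * d3 * (d4 * x0) := by simp only [mul_assoc]
    _ = -(d1 * d2 * (d3 * x1) * d4) := by rw [h4]; simp only [mul_assoc, mul_neg]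
    _ = d1 * (d2 * x2) * d3 * d4 := by
      rw [h3]; simp only [mul_assoc, mul_neg, neg_mul, neg_neg]
    _ = -((d1 * x3) * d2 * d3 * d4) := by rw [h2]; simp only [mul_assoc, mul_neg, neg_mul]
    _ = x4 * (d1 * d2 * d3 * d4) := by
      rw [h1]; simp only [mul_assoc, mul_neg, neg_mul, neg_neg]

end ring

theorem prod_rev {F : Type*} [Field F] {n : Type*} [Fintype n] [DecidableEq n]
    (d1 d2 d3 d4 : Matrix n n F) (c : F)
    (h1 : d1 * d1 = c • (1 : Matrix n n F)) (h2 : d2 * d2 = c • (1 : Matrix n n F))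
    (h3 : d3 * d3 = c • (1 : Matrix n n F)) (h4 : d4 * d4 = c • (1 : Matrix n n F)) :
    (d1 * d2 * d3 * d4) * (d4 * d3 * d2 * d1) = (c * c * c * c) • (1 : Matrix n n F) := by
  calc (d1 * d2 * d3 * d4) * (d4 * d3 * d2 * d1)
      = d1 * (d2 * (d3 * (d4 * d4) * d3) * d2) * d1 := by simp only [mul_assoc]
    _ = d1 * (d2 * (c • (d3 * d3)) * d2) * d1 := by
      rw [h4, Matrix.mul_smul, Matrix.mul_one, Matrix.smul_mul]
    _ = d1 * ((c * c) • (d2 * d2)) * d1 := by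
      rw [h3, smul_smul, Matrix.mul_smul, Matrix.mul_one, Matrix.smul_mul]
    _ = (c * c * c) • (d1 * d1) := by
      rw [h2, smul_smul, Matrix.mul_smul, Matrix.mul_one, Matrix.smul_mul]
    _ = (c * c * c * c) • (1 : Matrix n n F) := by
      rw [h1, smul_smul]

/-- **[EX5A]** -/
theorem pkgEx5A : PkgEx5A.{u} := by
  intro F _ R h hR hFr hle
  classical
  have h2 : (2 : F) ≠ 0 := hR.two_ne
  have h4 : (4 : F) ≠ 0 := by
    have h22 : (4 : F) = 2 * 2 := by norm_num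
    rw [h22]
    exact mul_ne_zero h2 h2
  have hsq : ∀ i, (h i : M4 F) * (h i : M4 F) = 1 := by
    intro i
    have h1 := congrArg (fun g : GL4 F => (g : M4 F)) (hFr.sq i)
    simpa using h1
  have hanti : ∀ i j, i ≠ j → (h i : M4 F) * (h j : M4 F) = -((h j : M4 F) * (h i : M4 F)) := by
    intro i j hij
    have h1 := congrArg (fun g : GL4 F => (g : M4 F)) (hFr.anti i j hij)
    simpa using h1
  have hadj : ∀ i u v, sympForm 2 F ((h i : M4 F) *ᵥ u) v
      = sympForm 2 F u ((h i : M4 F) *ᵥ v) := by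
    intro i u v
    have hm := (mem_spGL_iff 2 (h i)).1 (hle (hFr.mem i)) u ((h i : M4 F) *ᵥ v)
    rw [Matrix.mulVec_mulVec, hsq, Matrix.one_mulVec] at hm
    exact hm
  have hDD : ∀ a b, a ≠ b →
      ((h a : M4 F) - (h b : M4 F)) * ((h a : M4 F) - (h b : M4 F)) = (2 : F) • (1 : M4 F) := by
    intro a b hab
    rw [d_mul_d _ _ (hsq a) (hsq b) (hanti a b hab), two_smul]
  have hDadj : ∀ a b u v, sympForm 2 F (((h a : M4 F) - (h b : M4 F)) *ᵥ u) v
      = sympForm 2 F u (((h a : M4 F) - (h b : M4 F)) *ᵥ v) := by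
    intro a b u v
    have e1 : ∀ x y z : I4 → F, sympForm 2 F (x - y) z = sympForm 2 F x z - sympForm 2 F y z := by
      intro x y z
      unfold Cfsg.sympForm
      rw [sub_dotProduct]
    have e2 : ∀ x y z : I4 → F, sympForm 2 F z (x - y) = sympForm 2 F z x - sympForm 2 F z y := by
      intro x y z
      unfold Cfsg.sympForm
      rw [Matrix.mulVec_sub, dotProduct_sub]
    rw [Matrix.sub_mulVec, Matrix.sub_mulVec, e1, e2, hadj, hadj]
  have hDf : ∀ a b, a ≠ b → ∀ u v, sympForm 2 F (((h a : M4 F) - (h b : M4 F)) *ᵥ u)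
      (((h a : M4 F) - (h b : M4 F)) *ᵥ v) = 2 * sympForm 2 F u v := by
    intro a b hab u v
    rw [hDadj, Matrix.mulVec_mulVec, hDD a b hab, Matrix.smul_mulVec, Matrix.one_mulVec,
      sf_smul_right]
  -- the product
  set D01 : M4 F := (h 0 : M4 F) - (h 1 : M4 F) with hD01
  set D12 : M4 F := (h 1 : M4 F) - (h 2 : M4 F) with hD12
  set D23 : M4 F := (h 2 : M4 F) - (h 3 : M4 F) with hD23
  set D34 : M4 F := (h 3 : M4 F) - (h 4 : M4 F) with hD34
  have hf0 : ∀ u v, sympForm 2 F ((D01 * D12 * D23 * D34) *ᵥ u) ((D01 * D12 * D23 * D34) *ᵥ v)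
      = 16 * sympForm 2 F u v := by
    intro u v
    simp only [← Matrix.mulVec_mulVec]
    rw [hDf 0 1 (by decide), hDf 1 2 (by decide), hDf 2 3 (by decide), hDf 3 4 (by decide)]
    ring
  have hprod : (D01 * D12 * D23 * D34) * (D34 * D23 * D12 * D01)
      = ((2 : F) * 2 * 2 * 2) • (1 : M4 F) :=
    prod_rev D01 D12 D23 D34 2 (hDD 0 1 (by decide)) (hDD 1 2 (by decide))
      (hDD 2 3 (by decide)) (hDD 3 4 (by decide))
  have hinv1 : ((4 : F)⁻¹ • (D01 * D12 * D23 * D34)) * ((4 : F)⁻¹ • (D34 * D23 * D12 * D01))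
      = 1 := by
    rw [Matrix.smul_mul, Matrix.mul_smul, hprod, smul_smul, smul_smul]
    have e : (4 : F)⁻¹ * 4⁻¹ * (2 * 2 * 2 * 2) = 1 := by
      field_simp
      norm_num
    rw [e, one_smul]
  have hinv2 : ((4 : F)⁻¹ • (D34 * D23 * D12 * D01)) * ((4 : F)⁻¹ • (D01 * D12 * D23 * D34))
      = 1 := mul_eq_one_comm.1 hinv1
  -- the five commutation relations
  have e0 : (D01 * D12 * D23 * D34) * (h 0 : M4 F) = (h 1 : M4 F) * (D01 * D12 * D23 * D34) :=
    chain4 D01 D12 D23 D34 _ _ _ _ _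
      (d_mul_c _ _ _ (hanti 3 0 (by decide)) (hanti 4 0 (by decide)))
      (d_mul_c _ _ _ (hanti 2 0 (by decide)) (hanti 3 0 (by decide)))
      (d_mul_c _ _ _ (hanti 1 0 (by decide)) (hanti 2 0 (by decide)))
      (d_mul_a _ _ (hsq 0) (hsq 1))
  have e1 : (D01 * D12 * D23 * D34) * (h 1 : M4 F) = (h 2 : M4 F) * (D01 * D12 * D23 * D34) :=
    chain4 D01 D12 D23 D34 _ _ _ _ _
      (d_mul_c _ _ _ (hanti 3 1 (by decide)) (hanti 4 1 (by decide)))
      (d_mul_c _ _ _ (hanti 2 1 (by decide)) (hanti 3 1 (by decide)))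
      (d_mul_a _ _ (hsq 1) (hsq 2))
      (d_mul_c _ _ _ (hanti 0 2 (by decide)) (hanti 1 2 (by decide)))
  have e2 : (D01 * D12 * D23 * D34) * (h 2 : M4 F) = (h 3 : M4 F) * (D01 * D12 * D23 * D34) :=
    chain4 D01 D12 D23 D34 _ _ _ _ _
      (d_mul_c _ _ _ (hanti 3 2 (by decide)) (hanti 4 2 (by decide)))
      (d_mul_a _ _ (hsq 2) (hsq 3))
      (d_mul_c _ _ _ (hanti 1 3 (by decide)) (hanti 2 3 (by decide)))
      (d_mul_c _ _ _ (hanti 0 3 (by decide)) (hanti 1 3 (by decide)))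
  have e3 : (D01 * D12 * D23 * D34) * (h 3 : M4 F) = (h 4 : M4 F) * (D01 * D12 * D23 * D34) :=
    chain4 D01 D12 D23 D34 _ _ _ _ _
      (d_mul_a _ _ (hsq 3) (hsq 4))
      (d_mul_c _ _ _ (hanti 2 4 (by decide)) (hanti 3 4 (by decide)))
      (d_mul_c _ _ _ (hanti 1 4 (by decide)) (hanti 2 4 (by decide)))
      (d_mul_c _ _ _ (hanti 0 4 (by decide)) (hanti 1 4 (by decide)))
  have e4 : (D01 * D12 * D23 * D34) * (h 4 : M4 F) = (h 0 : M4 F) * (D01 * D12 * D23 * D34) :=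
    chain4 D01 D12 D23 D34 _ _ _ _ _
      (d_mul_b _ _ (hsq 3) (hsq 4))
      (d_mul_b _ _ (hsq 2) (hsq 3))
      (d_mul_b _ _ (hsq 1) (hsq 2))
      (d_mul_b _ _ (hsq 0) (hsq 1))
  refine ⟨⟨(4 : F)⁻¹ • (D01 * D12 * D23 * D34), (4 : F)⁻¹ • (D34 * D23 * D12 * D01), hinv1, hinv2⟩,
    ?_, ?_⟩
  · rw [mem_spGL_iff]
    intro u v
    show sympForm 2 F (((4 : F)⁻¹ • (D01 * D12 * D23 * D34)) *ᵥ u)
      (((4 : F)⁻¹ • (D01 * D12 * D23 * D34)) *ᵥ v) = sympForm 2 F u v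
    rw [Matrix.smul_mulVec, Matrix.smul_mulVec, sf_smul_left, sf_smul_right, hf0]
    field_simp
    norm_num
  · intro i
    rw [mul_inv_eq_iff_eq_mul]
    apply Units.ext
    rw [Units.val_mul, Units.val_mul]
    show ((4 : F)⁻¹ • (D01 * D12 * D23 * D34)) * (h i : M4 F)
      = (h (i + 1) : M4 F) * ((4 : F)⁻¹ • (D01 * D12 * D23 * D34))
    rw [Matrix.smul_mul, Matrix.mul_smul]
    congr 1
    fin_cases i
    · exact e0
    · exact e1
    · exact e2
    · exact e3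
    · exact e4
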